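import Mathlib
import Cfsg.Agent.Lib.Helper39.SqfDeg.Defs

/-!
# S5010 package [DEG]

Squarefree degrees pass to normal subgroups, and the inertia group of a linear character of a
normal subgroup has squarefree index (Clifford: `χ(1) = e · |G : T| · θ(1)`).
-/

set_option autoImplicit false

universe u

namespace Cfsg.Agent.Lib.Helper29.SqfDeg

open Cfsg.Agent.Lib.Helper39.SqfDeg

/-- **[DEG]** -/
theorem pkgDeg : PkgDeg.{u} := by
  intro G _ _ N _ hG
  classical
  haveI : Fintype G := Fintype.ofFinite G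
  haveI : Fintype N := Fintype.ofFinite N
  constructor
  · intro θ
    obtain ⟨χ, hχ, h⟩ := Cfsg.Agent.Lib.Helper80.exists_irr_over N θ.2
    obtain ⟨e, he⟩ := Cfsg.Agent.Lib.Helper80.charDegree_eq_mul_index_inertia N hχ θ.2 h
    have h1 : Cfsg.charDegree (θ : N → ℂ) ∣ Cfsg.charDegree χ := by
      rw [he]
      exact Dvd.intro_left _ rfl
    exact Squarefree.squarefree_of_dvd h1 (hG ⟨χ, hχ⟩)
  · intro lam
    have hθ : Cfsg.IsIrrCharacter N (Cfsg.Agent.Lib.Helper74.linFun lam) :=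
      Cfsg.Agent.Lib.Helper80.isIrrCharacter_of_hom lam
    obtain ⟨χ, hχ, h⟩ := Cfsg.Agent.Lib.Helper80.exists_irr_over N hθ
    obtain ⟨e, he⟩ := Cfsg.Agent.Lib.Helper80.charDegree_eq_mul_index_inertia N hχ hθ h
    have h1 : (Cfsg.Agent.Lib.Helper75.inertia N (Cfsg.Agent.Lib.Helper74.linFun lam)).index ∣
        Cfsg.charDegree χ := by
      rw [he]
      exact ⟨e * Cfsg.charDegree (Cfsg.Agent.Lib.Helper74.linFun lam), by ring⟩
    exact Squarefree.squarefree_of_dvd h1 (hG ⟨χ, hχ⟩)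

end Cfsg.Agent.Lib.Helper29.SqfDeg
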