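import Mathlib
import Cfsg.Agent.Lib.Helper39.SqfDeg.Defs
import Cfsg.Agent.Lib.Helper29.SqfDeg.Deg

/-!
# S5010 package [STAB]

The stabilizer `T` in `P` of a linear character of `R = O_{p'}(F(G))` has index `1` or `p`:
`|P : P ∩ T|` divides `|G : T|` (squarefree, as `P` is normal) and divides `|P : P ∩ F|`
(a power of `p`, as `F ≤ T`).
-/

set_option autoImplicit false

universe u

namespace Cfsg.Agent.Lib.Helper29.SqfDeg

open Cfsg.Agent.Lib.Helper39.SqfDeg

/-- For `P` normal, `|P : P ∩ T|` divides `|G : T|`. -/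
theorem relIndex_dvd_index_of_normal_right {G : Type u} [Group G] [Finite G] (T P : Subgroup G)
    [P.Normal] : T.relIndex P ∣ T.index := by
  have h1 : Nat.card ↥(T ⊓ P) * T.relIndex P = Nat.card ↥P := by
    have h := Subgroup.relIndex_mul_relIndex ⊥ (T ⊓ P) P bot_le inf_le_right
    rwa [Subgroup.relIndex_bot_left, Subgroup.relIndex_bot_left, Subgroup.inf_relIndex_right] at h
  have h2 : Nat.card ↥(T ⊓ P) * P.relIndex T = Nat.card ↥T := by
    have h := Subgroup.relIndex_mul_relIndex ⊥ (P ⊓ T) T bot_le inf_le_right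
    rwa [Subgroup.relIndex_bot_left, Subgroup.relIndex_bot_left, Subgroup.inf_relIndex_right,
      inf_comm] at h
  have h3 : Nat.card ↥T * T.relIndex (T ⊔ P) = Nat.card ↥(T ⊔ P) := by
    have h := Subgroup.relIndex_mul_relIndex ⊥ T (T ⊔ P) bot_le le_sup_left
    rwa [Subgroup.relIndex_bot_left, Subgroup.relIndex_bot_left] at h
  have h4 : Nat.card ↥P * P.relIndex T = Nat.card ↥(T ⊔ P) := by
    have h := Subgroup.relIndex_mul_relIndex ⊥ P (T ⊔ P) bot_le le_sup_right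
    rwa [Subgroup.relIndex_bot_left, Subgroup.relIndex_bot_left, Subgroup.relIndex_sup_right] at h
  have hc : 0 < Nat.card ↥(T ⊓ P) := Nat.card_pos
  have hy : 0 < P.relIndex T := by
    rcases Nat.eq_zero_or_pos (P.relIndex T) with h | h
    · rw [h, mul_zero] at h2
      exact absurd h2.symm (Nat.card_pos).ne'
    · exact h
  have heq : T.relIndex (T ⊔ P) = T.relIndex P := by
    have h : Nat.card ↥(T ⊓ P) * P.relIndex T * T.relIndex (T ⊔ P) =
        Nat.card ↥(T ⊓ P) * P.relIndex T * T.relIndex P := by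
      calc Nat.card ↥(T ⊓ P) * P.relIndex T * T.relIndex (T ⊔ P)
          = Nat.card ↥T * T.relIndex (T ⊔ P) := by rw [h2]
        _ = Nat.card ↥(T ⊔ P) := h3
        _ = Nat.card ↥P * P.relIndex T := h4.symm
        _ = Nat.card ↥(T ⊓ P) * T.relIndex P * P.relIndex T := by rw [h1]
        _ = Nat.card ↥(T ⊓ P) * P.relIndex T * T.relIndex P := by ring
    exact Nat.eq_of_mul_eq_mul_left (Nat.mul_pos hc hy) h
  rw [← heq]
  exact Subgroup.relIndex_dvd_index_of_le le_sup_left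

/-- **[STAB]** (from `PkgR`; `PkgDeg` is `pkgDeg`). -/
theorem pkgStab_of (hR : PkgR.{u}) : PkgStab.{u} := by
  intro G _ _ p _ P _ hG hP lam
  classical
  haveI : Fintype G := Fintype.ofFinite G
  obtain ⟨-, -, -, hR4⟩ := hR G p
  obtain ⟨T, hT⟩ : ∃ T : Subgroup G, T = Cfsg.Agent.Lib.Helper75.inertia (RR p G)
      (Cfsg.Agent.Lib.Helper74.linFun lam) := ⟨_, rfl⟩
  rw [← hT]
  have hsq : Squarefree T.index := by
    rw [hT]
    exact (pkgDeg G (RR p G) hG).2 lam
  have hsq2 : Squarefree (T.relIndex P) :=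
    Squarefree.squarefree_of_dvd (relIndex_dvd_index_of_normal_right T P) hsq
  have hFT : Cfsg.fittingSubgroup G ≤ T := by
    intro z hz
    rw [hT, Cfsg.Agent.Lib.Helper74.mem_inertia_linFun]
    intro r
    obtain ⟨b, hb, hbr⟩ := hR4 z hz
    have h1 : ∀ hmem : z * (r : G) * z⁻¹ ∈ RR p G,
        (⟨z * (r : G) * z⁻¹, hmem⟩ : ↥(RR p G)) = ⟨b, hb⟩ * r * (⟨b, hb⟩ : ↥(RR p G))⁻¹ :=
      fun _ => Subtype.ext (hbr r r.2)
    rw [h1, map_mul, map_mul, map_inv, mul_right_comm, mul_inv_cancel, one_mul]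
  have hdvd : T.relIndex P ∣ (Cfsg.fittingSubgroup G).relIndex P :=
    Subgroup.relIndex_dvd_of_le_left P hFT
  obtain ⟨n, hn⟩ : ∃ n, (Cfsg.fittingSubgroup G).relIndex P = p ^ n := by
    have hpg : IsPGroup p (↥P ⧸ (Cfsg.fittingSubgroup G).subgroupOf P) := by
      intro x
      obtain ⟨y, rfl⟩ := QuotientGroup.mk_surjective x
      obtain ⟨k, hk⟩ := hP y y.2
      refine ⟨k, ?_⟩
      rw [← QuotientGroup.mk_pow, QuotientGroup.eq_one_iff, Subgroup.mem_subgroupOf,
        Subgroup.coe_pow]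
      exact hk
    obtain ⟨n, hn⟩ := IsPGroup.iff_card.mp hpg
    exact ⟨n, hn⟩
  rw [hn] at hdvd
  obtain ⟨j, -, hj⟩ := (Nat.dvd_prime_pow (Fact.out : p.Prime)).mp hdvd
  rw [hj] at hsq2 ⊢
  rcases j with _ | _ | j
  · simp
  · simp
  · exfalso
    have h2 : p * p ∣ p ^ (j + 2) := ⟨p ^ j, by ring⟩
    have h3 := hsq2 p h2
    exact (Fact.out : p.Prime).one_lt.ne' (Nat.isUnit_iff.mp h3)

end Cfsg.Agent.Lib.Helper29.SqfDeg
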